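import Cfsg.Agent.Lib.SporRecognition.CosetCert.Upper
import Cfsg.Agent.Lib.FusionExamples.J4Sub.C23.Steps1

/-! Generated coset-enumeration certificate: J47 over <g1, g12, g15, g20, a>, 23 cosets. -/

set_option autoImplicit false
set_option maxRecDepth 20000
set_option linter.all false
set_option Elab.async false

namespace CfsgLib.FusionExamples.J4Sub.Stab.C23

open CfsgLib.SporRecognition.CosetCert

theorem defs_ok : allBelow 5 28 (defStep inv fact) = true := by decide +kernel

theorem final1 : allBelow 5 23 (finalStep fact node item1 T1 211 1 23) = true := by decide +kernel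

theorem final2 : allBelow 5 23 (finalStep fact node item2 T2 211 2 23) = true := by decide +kernel

theorem final3 : allBelow 5 23 (finalStep fact node item3 T3 211 3 23) = true := by decide +kernel

theorem final4 : allBelow 5 23 (finalStep fact node item4 T4 211 4 23) = true := by decide +kernel

theorem final5 : allBelow 5 23 (finalStep fact node item5 T5 211 5 23) = true := by decide +kernel

theorem final6 : allBelow 5 23 (finalStep fact node item6 T6 211 6 23) = true := by decide +kernel

theorem final7 : allBelow 5 23 (finalStep fact node item7 T7 211 7 23) = true := by decide +kernel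

theorem final8 : allBelow 5 23 (finalStep fact node item8 T8 211 8 23) = true := by decide +kernel

theorem final9 : allBelow 5 23 (finalStep fact node item9 T9 211 9 23) = true := by decide +kernel

theorem final10 : allBelow 5 23 (finalStep fact node item10 T10 211 10 23) = true := by decide +kernel

theorem final11 : allBelow 5 23 (finalStep fact node item11 T11 211 11 23) = true := by decide +kernel

theorem final12 : allBelow 5 23 (finalStep fact node item12 T12 211 12 23) = true := by decide +kernel

theorem final13 : allBelow 5 23 (finalStep fact node item13 T13 211 13 23) = true := by decide +kernel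

theorem final14 : allBelow 5 23 (finalStep fact node item14 T14 211 14 23) = true := by decide +kernel

theorem final15 : allBelow 5 23 (finalStep fact node item15 T15 211 15 23) = true := by decide +kernel

theorem final16 : allBelow 5 23 (finalStep fact node item16 T16 211 16 23) = true := by decide +kernel

theorem relW_one : ∀ w ∈ relW, evalW (PresentedGroup.of (rels := (Cfsg.Spor.coxRelators CfsgLib.FusionExamples.J4Sub.Stab.edges ∪ {r | r ∈ CfsgLib.FusionExamples.J4Sub.Stab.extra}))) w = 1 := by
  have h : coxW CfsgLib.FusionExamples.J4Sub.Stab.edges pairs extraW = relW := by decide +kernel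
  rw [← h]
  exact coxW_eq_one (by decide +kernel) rfl

noncomputable def tabU : CfsgLib.FusionExamples.J4Sub.Stab.Gen → Nat → Nat := fun a => tabs a true

theorem sect : ∃ s : Nat → PresentedGroup (Cfsg.Spor.coxRelators CfsgLib.FusionExamples.J4Sub.Stab.edges ∪ {r | r ∈ CfsgLib.FusionExamples.J4Sub.Stab.extra}) ⧸ wordSubgroup (Cfsg.Spor.coxRelators CfsgLib.FusionExamples.J4Sub.Stab.edges ∪ {r | r ∈ CfsgLib.FusionExamples.J4Sub.Stab.extra}) subW,
    s 0 = ((1 : PresentedGroup (Cfsg.Spor.coxRelators CfsgLib.FusionExamples.J4Sub.Stab.edges ∪ {r | r ∈ CfsgLib.FusionExamples.J4Sub.Stab.extra})) : PresentedGroup (Cfsg.Spor.coxRelators CfsgLib.FusionExamples.J4Sub.Stab.edges ∪ {r | r ∈ CfsgLib.FusionExamples.J4Sub.Stab.extra}) ⧸ wordSubgroup (Cfsg.Spor.coxRelators CfsgLib.FusionExamples.J4Sub.Stab.edges ∪ {r | r ∈ CfsgLib.FusionExamples.J4Sub.Stab.extra}) subW) ∧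
    ∀ a ∈ ([.g1, .g5, .g12, .g15, .g20, .g22, .g25, .a] : List CfsgLib.FusionExamples.J4Sub.Stab.Gen), ∀ u, u < 23 → tabU a u < 23 ∧
      (PresentedGroup.of (rels := (Cfsg.Spor.coxRelators CfsgLib.FusionExamples.J4Sub.Stab.edges ∪ {r | r ∈ CfsgLib.FusionExamples.J4Sub.Stab.extra})) a) • s u = s (tabU a u) :=
  section_of_checks invols relW relW_one (by decide +kernel) subW lets data rtriv rroot 50 55 rfl rfl
    (by decide +kernel) (by decide +kernel) (fun k hk => allBelow_spec defs_ok k hk) (covers1) (by decide +kernel)
    (by
      intro i hi u hu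
      have hi' : i < 16 := hi
      interval_cases i
      · exact allBelow_spec final1 u hu
      · exact allBelow_spec final2 u hu
      · exact allBelow_spec final3 u hu
      · exact allBelow_spec final4 u hu
      · exact allBelow_spec final5 u hu
      · exact allBelow_spec final6 u hu
      · exact allBelow_spec final7 u hu
      · exact allBelow_spec final8 u hu
      · exact allBelow_spec final9 u hu
      · exact allBelow_spec final10 u hu
      · exact allBelow_spec final11 u hu
      · exact allBelow_spec final12 u hu
      · exact allBelow_spec final13 u hu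
      · exact allBelow_spec final14 u hu
      · exact allBelow_spec final15 u hu
      · exact allBelow_spec final16 u hu
      ) [.g1, .g5, .g12, .g15, .g20, .g22, .g25, .a] tabU (by
      intro a ha
      fin_cases ha
      · exact ⟨0, by decide, rfl, rfl⟩
      · exact ⟨2, by decide, rfl, rfl⟩
      · exact ⟨4, by decide, rfl, rfl⟩
      · exact ⟨6, by decide, rfl, rfl⟩
      · exact ⟨8, by decide, rfl, rfl⟩
      · exact ⟨10, by decide, rfl, rfl⟩
      · exact ⟨12, by decide, rfl, rfl⟩
      · exact ⟨14, by decide, rfl, rfl⟩
      )

end CfsgLib.FusionExamples.J4Sub.Stab.C23
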